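import Cfsg.Agent.Lib.Monster.Basic

/-! # The normalizer of a cyclic group of order four in a group of Monster type -/

set_option autoImplicit false

namespace Cfsg.Lib.M4

open Subgroup MulAction Cfsg.Lib.Leech Cfsg.Lib.ES Cfsg.Spor Cfsg.Lib.Mon

variable {G : Type*} [Group G] [Finite G] {z : G} {Q : Subgroup G}

theorem exists_co3 (D : XD z Q Co1 L2) (hc : Nat.card Q = 2 ^ (2 * 12 + 1)) :
    ∃ (C N : Subgroup G) (R : Subgroup N), IsCyclic C ∧ Nat.card C = 4 ∧ N = normalizer (C : Set G) ∧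
      IsExtraspecial 2 R ∧ Nat.card R = 2 ^ 25 ∧ ∃ _ : R.Normal, Nonempty (N ⧸ R ≃* Co3) := by
  classical
  obtain ⟨x, hx, e⟩ := D.π_surj (leechV : L2)
  have h1 := sq_ne_one_of_nm D hx e nm_leechV
  have h2 : x ^ 2 = z := (D.lg.mem_iff.1 (D.lg.sq_mem x hx)).resolve_left h1
  have h3 : x ^ 4 = 1 := by rw [show 4 = 2 * 2 from rfl, pow_mul, h2, sq, D.lg.mul_self]
  have h4 : orderOf x = 4 := orderOf_eq_prime_pow (p := 2) (n := 1) (by simpa using h1) h3
  have h5 : z * x = x⁻¹ := by rw [← h2, eq_inv_iff_mul_eq_one, ← pow_succ, ← pow_succ, h3]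
  have h6 : ∀ g, g ∈ normalizer (zpowers x : Set G) ↔ g * x * g⁻¹ = x ∨ g * x * g⁻¹ = x⁻¹ := fun g => by
    refine ⟨fun h => ?_, fun h => mem_normalizer_fintype fun n ⟨k, hk⟩ => ?_⟩
    · have h7 := orderOf_conj_eq g x
      obtain ⟨k, hk, e⟩ := Finset.mem_image.1 (mem_zpowers_iff_mem_range_orderOf.1 ((h x).1 (mem_zpowers x)))
      rw [← e] at h7 ⊢
      rw [h4, Finset.mem_range] at hk
      interval_cases k
      · simp [h4] at h7
      · simp
      · rw [h2, D.lg.ord, h4] at h7; omega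
      · exact .inr (by rw [← h5, ← h2, ← pow_succ])
    · rw [← hk, ← conj_zpow]
      rcases h with h | h <;> rw [h]
      exacts [zpow_mem (mem_zpowers x) k, zpow_mem (inv_mem (mem_zpowers x)) k]
  have h7 : normalizer (zpowers x : Set G) ≤ centralizer {z} := fun g hg => mem_centralizer_singleton_iff.2 (by
    rw [← mul_inv_eq_iff_eq_mul, ← h2, ← conj_pow]
    rcases (h6 g).1 hg with h | h <;> rw [h]
    rw [inv_pow, h2, D.lg.inv_eq])
  have h8 : ∀ g : centralizer ({z} : Set G), (g : G) ∈ normalizer (zpowers x : Set G) ↔ D.ρ g • D.π x = D.π x := fun g => by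
    rw [h6, ← D.π_conj g x hx, eq_comm (a := D.π _), D.π_eq_iff hx (D.conj_mem g hx), h5]
  have h9 : Q ≤ normalizer (zpowers x : Set G) := fun q hq =>
    (h8 ⟨q, D.lg.cent hq⟩).2 (by rw [(D.ker _).2 hq, one_smul])
  let φ : normalizer (zpowers x : Set G) →* stabilizer Co1 (D.π x) :=
    (D.ρ.comp (inclusion h7)).codRestrict _ fun g => (h8 _).1 g.2
  have hk : φ.ker = Q.subgroupOf _ := by
    ext g; exact Subtype.ext_iff.trans (D.ker _)
  have hs : Function.Surjective φ := fun c => by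
    obtain ⟨g, hg⟩ := D.surj c
    exact ⟨⟨g, (h8 g).2 (hg ▸ c.2)⟩, Subtype.ext hg⟩
  have e' := subgroupOfEquivOfLe h9
  refine ⟨zpowers x, _, φ.ker, inferInstance, (Nat.card_zpowers x).trans h4, rfl, ?_,
    by rw [hk, Nat.card_congr e'.toEquiv, hc], inferInstance,
    ⟨(QuotientGroup.quotientKerEquivOfSurjective φ hs).trans ((MulEquiv.subgroupCongr ?_).trans
      ((mapCo1Equiv _ (negOne_notMem_stabilizer (by rw [nm_leechV]; norm_num))).symm.trans co3Equiv))⟩⟩
  · rw [hk]; exact isExtraspecial_congr e'.symm D.es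
  · rw [e, stabilizer_mk (by rw [nm_leechV]; norm_num)]

end Cfsg.Lib.M4
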