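import Cfsg.Agent.Lib.Monster.Basic
import Cfsg.Agent.Lib.Monster.Sec
import Cfsg.Agent.Lib.Inv.FourGroup

/-! # The normalizer of a pure four-group in a group of Monster type -/

set_option autoImplicit false

namespace Cfsg.Lib.M4

open Subgroup MulAction Cfsg.Lib.Leech Cfsg.Lib.ES Cfsg.Spor Cfsg.Lib.Mon

/-- extend a homomorphism from `L` to `L X` -/
theorem exists_ext {G A : Type*} [Group G] [Group A] {N X L : Subgroup G} (hL : L ≤ N) (hn : N ≤ normalizer (X : Set G))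
    (hs : ∀ g ∈ N, ∃ l ∈ L, l⁻¹ * g ∈ X) (a : L →* A) (hk : ∀ l, a l = 1 ↔ (l : G) ∈ X) :
    ∃ α : N →* A, (∀ l : L, α (inclusion hL l) = a l) ∧ ∀ g, α g = 1 ↔ (g : G) ∈ X := by
  haveI : (X.subgroupOf N).Normal := normal_subgroupOf_of_le_normalizer hn
  let m := (QuotientGroup.mk' (X.subgroupOf N)).comp (inclusion hL)
  have h1 : ∀ g : N, ∃ l, m l = g := fun g => let ⟨l, hl, e⟩ := hs g g.2; ⟨⟨l, hl⟩, QuotientGroup.eq.2 e⟩
  have h2 : ∀ l, m l = 1 ↔ (l : G) ∈ X := fun l => QuotientGroup.eq_one_iff _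
  have h3 : Function.Surjective m := fun g => QuotientGroup.induction_on g h1
  let φ := m.liftOfSurjective h3 ⟨a, fun l h => (hk l).2 ((h2 l).1 h)⟩
  have h4 : ∀ l, φ (m l) = a l := fun l => MonoidHom.liftOfRightInverse_comp_apply _ _ _ _ _
  refine ⟨φ.comp (QuotientGroup.mk' _), h4, fun g => ?_⟩
  obtain ⟨l, e⟩ := h1 g
  rw [← mem_subgroupOf, ← QuotientGroup.eq_one_iff, ← e, h2, ← hk, ← h4, e]; rfl

theorem exists_prod {G A B : Type*} [Group G] [Group A] [Group B] {N X L : Subgroup G} (hL : L ≤ N) (hX : X ≤ N)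
    (h1 : N ≤ normalizer (X : Set G)) (h2 : N ≤ normalizer (L : Set G)) (hs : ∀ g ∈ N, ∃ x ∈ X, x⁻¹ * g ∈ L)
    {a : L →* A} (ha : Function.Surjective a) (hk : ∀ l, a l = 1 ↔ (l : G) ∈ X) {b : X →* B} (hb : Function.Surjective b)
    (hk' : ∀ x, b x = 1 ↔ (x : G) ∈ L) : ∃ φ : N →* A × B, Function.Surjective φ ∧ φ.ker = (X ⊓ L).subgroupOf N := by
  obtain ⟨α, a1, a2⟩ := exists_ext hL h1 (fun g hg => let ⟨x, hx, e⟩ := hs _ (inv_mem hg)
    ⟨_, inv_mem e, by simpa using hx⟩) a hk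
  obtain ⟨β, b1, b2⟩ := exists_ext hX h2 hs b hk'
  refine ⟨α.prod β, fun ⟨u, v⟩ => ?_, by ext g; simp [Prod.ext_iff, a2, b2, mem_subgroupOf]⟩
  obtain ⟨l, rfl⟩ := ha u
  obtain ⟨x, rfl⟩ := hb v
  exact ⟨inclusion hL l * inclusion hX x, by
    simp [a1, b1, (a2 (inclusion hX x)).2 x.2, (b2 (inclusion hL l)).2 l.2]⟩

theorem exists_m24 : ∃ a : stabilizer Co1 (e8 none : L2) →* M24, Function.Surjective a ∧ ∀ g, a g = 1 ↔ (g : Co1) ∈ signs := by
  have h : perms ≤ stabilizer Co1 (e8 none : L2) := signs_sup none ▸ le_sup_right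
  obtain ⟨α, h1, h2⟩ := exists_ext h (le_normalizer_signs none) (fun g hg => by
    rw [← signs_sup none, sup_comm, ← SetLike.mem_coe,
      coe_mul_of_left_le_normalizer_right _ _ (h.trans (le_normalizer_signs none))] at hg
    obtain ⟨l, hl, x, hx, rfl⟩ := hg
    exact ⟨l, hl, by simpa using hx⟩) permsEquiv.symm.toMonoidHom fun l => by
      rw [MulEquiv.coe_toMonoidHom, map_eq_one_iff _ (MulEquiv.injective _), Subtype.ext_iff, coe_one, ← mem_bot,
        ← signs_inf]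
      exact and_iff_left l.2
  exact ⟨α, fun σ => ⟨_, (h1 (permsEquiv σ)).trans (by simp)⟩, h2⟩

theorem pCore_m24_s3 : pCore 2 (M24 × Equiv.Perm (Fin 3)) = ⊥ := by
  have := Cfsg.Agent.S0365.result
  have h1 : pCore 2 M24 = ⊥ := (IsSimpleGroup.eq_bot_or_eq_top_of_normal _ inferInstance).resolve_right fun h =>
    not_isPGroup_of_card (by rw [Cfsg.Agent.S0364.result]; norm_num) (Core.pCore_eq_top_iff.1 h)
  have h2 : pCore 2 (Equiv.Perm (Fin 3)) = ⊥ := eq_bot_iff.2 fun x hx => by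
    have key : ∀ x : Equiv.Perm (Fin 3), x ≠ 1 → ∃ g, x * (g * x * g⁻¹) ≠ 1 ∧ (x * (g * x * g⁻¹)) ^ 3 = 1 := by
      decide +kernel
    by_contra h
    obtain ⟨g, h3, h4⟩ := key x h
    obtain ⟨k, hk⟩ := Core.isPGroup_subgroup_iff.1 (Core.pCore_isPGroup 2 _) _
      (mul_mem hx (Normal.conj_mem inferInstance x hx g))
    exact h3 (by simpa [Nat.Coprime.gcd_eq_one (Nat.Coprime.pow_left k (by norm_num : Nat.Coprime 2 3))] using
      pow_gcd_eq_one.2 ⟨hk, h4⟩)
  rw [Core.pCore_prod, h1, h2, bot_prod_bot]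

variable {G : Type*} [Group G] [Finite G] {z g : G} {Q : Subgroup G}

theorem exists_v4 (D : XD z Q Co1 L2) (hc : Nat.card Q = 2 ^ (2 * 12 + 1)) (hg : g * z * g⁻¹ ∈ Q) (hne : g * z * g⁻¹ ≠ z) :
    ∃ (E N : Subgroup G) (O : Subgroup N), IsKleinFour E ∧ N = normalizer (E : Set G) ∧ O = pCore 2 N ∧
      Nat.card O = 2 ^ 35 ∧ (center O).map O.subtype = E.subgroupOf N ∧
      ∃ _ : O.Normal, Nonempty (N ⧸ O ≃* M24 × Equiv.Perm (Fin 3)) := by
  obtain ⟨c, hπ, -⟩ := exists_img_eq D hc hg hne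
  replace hπ : (D.twist c⁻¹).π (g * z * g⁻¹) = e8 none := by rw [XD.twist_π, hπ, inv_smul_smul]
  generalize D.twist c⁻¹ = D at hπ
  have hp := D.lg.pr hg hne
  have hi := img_eq_signs D hc hg hπ
  have hq := fun i => @Lg.nonempty_quotient_rad_equiv _ _ _ _ _ _ _ _ D.lg hg hne rfl rfl i
  have h6 := fun u hu v hv (h1 : u ≠ 1) (h2 : v ≠ 1) (h3 : u ≠ v) => D.lg.exists_conj_pair hg hne hu hv h1 h2 h3
  have h7 := relIndex_centralizer_eq_six D.lg.ord hp.r.ord hp.comm hne fun u hu v hv h1 h2 h3 =>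
    (h6 u hu v hv h1 h2 h3).imp fun _ h => h.2
  generalize Q.map (MulAut.conj g).toMonoidHom = R, g * z * g⁻¹ = t at *
  have hL := Pr.centralizer_pair (z := z) (t := t)
  have hN : normalizer (closure {z, t} : Subgroup G) ≤ normalizer ((centralizer {z} ⊓ centralizer {t} : Subgroup G) : Set G) :=
    hL ▸ Core.normalizer_le_normalizer_centralizer _
  have hLN := hL ▸ centralizer_le_normalizer ((closure {z, t} : Subgroup G) : Set G)
  have hX := hp.le_normalizer le_rfl hp.closure_le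
  have hs : ∀ n ∈ normalizer (closure {z, t} : Subgroup G), ∃ x ∈ Q ⊔ R, x⁻¹ * n ∈ centralizer {z} ⊓ centralizer {t} :=
    fun n hn => by
      obtain ⟨x, hx, e1, e2⟩ := h6 _ ((hn z).1 (subset_closure (by simp))) _ ((hn t).1 (subset_closure (by simp)))
        (by simpa using hp.l.ne_one) (by simpa using hp.r.ne_one) (by simpa using hne.symm)
      refine ⟨x, hx, ?_, ?_⟩ <;> refine mem_centralizer_singleton_iff.2 ?_
      · calc _ = x⁻¹ * (n * z * n⁻¹) * n := by group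
          _ = _ := by rw [← e1]; group
      · calc _ = x⁻¹ * (n * t * n⁻¹) * n := by group
          _ = _ := by rw [← e2]; group
  have hLX : centralizer {z} ⊓ centralizer {t} ≤ normalizer ((Q ⊔ R : Subgroup G) : Set G) :=
    Core.le_normalizer_sup (inf_le_left.trans hp.l.norm) (inf_le_right.trans hp.r.norm)
  have hYX : (R ⊓ centralizer {z}) ⊔ (Q ⊓ centralizer {t}) ≤ Q ⊔ R :=
    sup_le (inf_le_left.trans le_sup_right) (inf_le_left.trans le_sup_left)
  haveI := normal_subgroupOf_of_le_normalizer hp.le_normalizer_rad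
  obtain ⟨e⟩ := hq this
  have hY : (Q ⊔ R) ⊓ (centralizer {z} ⊓ centralizer {t}) = (R ⊓ centralizer {z}) ⊔ (Q ⊓ centralizer {t}) := by
    haveI := normal_subgroupOf_of_le_normalizer hN
    have h1 := relIndex_sup_right ((Q ⊔ R).subgroupOf (normalizer (closure {z, t} : Subgroup G)))
      ((centralizer {z} ⊓ centralizer {t}).subgroupOf _)
    rw [relIndex_subgroupOf hX, show _ ⊔ _ = (⊤ : Subgroup (normalizer _)) from eq_top_iff.2 fun n _ => by
      obtain ⟨x, hx, h⟩ := hs n n.2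
      simpa using mul_mem (mem_sup_left (x := ⟨x, hX hx⟩) hx) (mem_sup_right (x := ⟨x, hX hx⟩⁻¹ * n) h),
      relIndex_top_right, ← relIndex, ← hL, h7, hL, ← inf_relIndex_right, inf_comm] at h1
    have h2 := relIndex_mul_relIndex _ _ _ (le_inf hYX hp.rad_le) (inf_le_left (a := Q ⊔ R))
    rw [← h1, relIndex, relIndex, index_eq_card (_ : Subgroup ↥(Q ⊔ R)), Nat.card_congr e.toEquiv, DihedralGroup.nat_card,
      ← relIndex] at h2
    exact le_antisymm (relIndex_eq_one.1 (by omega)) (le_inf hYX hp.rad_le)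
  have hm := D.map_centralizer hp.mem_l (D.π_ne_zero hp.mem_l hp.r.ne_one hne)
  rw [hπ] at hm
  obtain ⟨a, a1, a2⟩ := exists_m24
  let ρ : ↥(centralizer {z} ⊓ centralizer {t}) →* stabilizer Co1 (e8 none : L2) :=
    (D.ρ.comp (inclusion inf_le_left)).codRestrict _ fun l => hm ▸ ⟨_, l.2, rfl⟩
  have hρ : ∀ l, (ρ l : Co1) ∈ signs ↔ (l : G) ∈ (R ⊓ centralizer {z}) ⊔ (Q ⊓ centralizer {t}) := fun l => by
    refine ⟨fun h => ?_, fun h => ?_⟩
    · obtain ⟨r, hr, e⟩ := hi.ge h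
      have h1 : (r : G)⁻¹ * l ∈ Q := (D.ker (r⁻¹ * inclusion inf_le_left l)).1 (by rw [map_mul, map_inv, e]; exact inv_mul_cancel _)
      simpa using mul_mem (mem_sup_left (mem_subgroupOf.1 hr)) (mem_sup_right (T := Q ⊓ centralizer {t})
        ⟨h1, Subgroup.mul_mem _ (inv_mem (hp.r.cent hr.1)) l.2.2⟩)
    · rw [← SetLike.mem_coe, coe_mul_of_left_le_normalizer_right _ _ ((le_sup_left.trans hp.rad_le).trans
        (Core.le_normalizer_inf (inf_le_left.trans hp.l.norm) (inf_le_right.trans le_normalizer)))] at h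
      obtain ⟨r, hr, q, hq, e⟩ := h
      refine hi.le ⟨⟨r, hr.2⟩, hr, ?_⟩
      rw [← mul_one (D.ρ _), ← (D.ker ⟨q, D.lg.cent hq.1⟩).2 hq.1, ← map_mul]
      exact congrArg D.ρ (Subtype.ext e)
  obtain ⟨e'⟩ := nonempty_dihedral_three_equiv
  obtain ⟨φ, h1, h2⟩ := exists_prod hLN hX (fun n hn => by
      obtain ⟨x, hx, h⟩ := hs n hn
      simpa using mul_mem (le_normalizer hx) (hLX h)) hN hs (a := a.comp ρ)
    (a1.comp fun s => let ⟨l, hl, e⟩ := hm.ge s.2; ⟨⟨l, hl⟩, Subtype.ext e⟩)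
    (fun l => by rw [MonoidHom.comp_apply, a2, hρ, ← hY]; exact and_iff_left l.2)
    (b := (e.trans e').toMonoidHom.comp (QuotientGroup.mk' _)) ((e.trans e').surjective.comp (QuotientGroup.mk'_surjective _))
    fun x => by
      rw [MonoidHom.comp_apply, MulEquiv.coe_toMonoidHom, map_eq_one_iff _ (MulEquiv.injective _), QuotientGroup.mk'_apply,
        QuotientGroup.eq_one_iff, mem_subgroupOf, ← hY]
      exact and_iff_right x.2
  rw [hY] at h2
  have hYN := hYX.trans hX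
  refine ⟨_, _, φ.ker, ?_, rfl, ?_, ?_, ?_, inferInstance, ⟨QuotientGroup.quotientKerEquivOfSurjective φ h1⟩⟩
  · rw [Set.insert_eq, Subgroup.closure_union, ← zpowers_eq_closure, ← zpowers_eq_closure]
    exact Inv.k4_sup hp.l.ord hp.r.ord hne.symm hp.comm
  · rw [← Core.comap_pCore_eq h1 (h2 ▸ (Core.isPGroup_subgroupOf_iff hYN).2 hp.isPGroup_rad), pCore_m24_s3]; rfl
  · have h3 := D.card_map_mul (hp.rad_le.trans inf_le_left)
    have h4 : (centralizer ({t} : Set G)).relIndex Q = 2 := by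
      have h3 := hp.l.relIndex_centralizer_le hp.mem_l
      have h4 : (centralizer ({t} : Set G)).relIndex Q ≠ 1 := fun h5 => let ⟨s, hs, h, _⟩ := hp.exists_not_mem
        h (relIndex_eq_one.1 h5 hs)
      have h5 : (centralizer ({t} : Set G)).relIndex Q ≠ 0 := index_ne_zero_of_finite
      omega
    have h5 := card_mul_index ((Q ⊓ centralizer {t}).subgroupOf Q)
    rw [Nat.card_congr (subgroupOfEquivOfLe inf_le_left).toEquiv, inf_subgroupOf_left, ← relIndex, h4, hc] at h5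
    rw [show Q ⊓ _ = Q ⊓ centralizer {t} from le_antisymm (inf_le_inf_left _ (hp.rad_le.trans inf_le_right))
      (le_inf inf_le_left le_sup_right), show map D.ρ _ = signs from le_antisymm
        (by rintro _ ⟨l, hl, rfl⟩; exact (hρ ⟨l, hp.rad_le hl⟩).2 hl)
        (hi.ge.trans (map_mono (subgroupOf_mono _ le_sup_left))), card_signs] at h3
    rw [h2, Nat.card_congr (subgroupOfEquivOfLe hYN).toEquiv]
    omega
  · rw [Core.map_subtype_center, h2]
    ext n
    refine ⟨fun h => hp.centralizer_inf_le D.es fun q hq => congrArg Subtype.val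
      (h.2 ⟨q, hYN (mem_sup_right hq)⟩ (mem_sup_right hq)), fun h => ⟨mem_sup_right (hp.inf_le (hp.closure_le h)),
      fun y hy => Subtype.ext (hL.ge (hp.rad_le hy) n h).symm⟩⟩

end Cfsg.Lib.M4
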